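import Mathlib
import Cfsg.Agent.Lib.Helper22.CoprimeP
import Cfsg.Agent.Lib.Helper22.Generation2
import Cfsg.Agent.Lib.Helper88.CoprimeAbelian

/-!
# Ward's theorem (S3796): definitions for the pieces

Ambient form: `G, A ≤ Γ`, `G` normal and solvable, `A` elementary abelian of order dividing `p ^ 2`,
`C_G(A) = 1`.  Conclusion `Meta G`: `G` is nilpotent-by-nilpotent.
-/

set_option autoImplicit false

namespace Cfsg.Agent.Lib.Helper15.Ward

open Subgroup

universe u

/-- `G` is nilpotent-by-nilpotent, ambient form -/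
def Meta {Γ : Type*} [Group Γ] (G : Subgroup Γ) : Prop :=
  ∃ F : Subgroup Γ, F.Normal ∧ F ≤ G ∧ (∃ k, F.lowerCentralSeries k = ⊥) ∧
    ∃ k, G.lowerCentralSeries k ≤ F

/-- the hypotheses, ambient form -/
structure Hyp {Γ : Type*} [Group Γ] (p : ℕ) (G A : Subgroup Γ) : Prop where
  normal : G.Normal
  sup : G ⊔ A = ⊤
  sol : Group.IsSolvable G
  comm : ∀ x ∈ A, ∀ y ∈ A, x * y = y * x
  exp : ∀ x ∈ A, x ^ p = 1
  card : Nat.card A ∣ p ^ 2
  fix : G ⊓ centralizer (A : Set Γ) = ⊥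

end Cfsg.Agent.Lib.Helper15.Ward
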