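import Mathlib
import Cfsg.Agent.Lib.Helper15.Ward.Defs

/-!
# Ward's theorem: small group lemmas on an elementary abelian group of order `p ^ 2`
-/

set_option autoImplicit false

namespace Cfsg.Agent.Lib.Helper15.Ward

open Subgroup

variable {Γ : Type*} [Group Γ]

theorem mem_zpowers_of_mem_zpowers {p : ℕ} (hp : p.Prime) {a b : Γ} (ha : a ^ p = 1)
    (hb : b ∈ zpowers a) (hb1 : b ≠ 1) : a ∈ zpowers b := by
  obtain ⟨k, rfl⟩ := mem_zpowers_iff.mp hb
  have hk : ¬ (p : ℤ) ∣ k := by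
    rintro ⟨m, rfl⟩
    apply hb1
    rw [zpow_mul, zpow_natCast, ha, one_zpow]
  have hcop : IsCoprime k (p : ℤ) :=
    ((Nat.prime_iff_prime_int.mp hp).coprime_iff_not_dvd.mpr hk).symm
  obtain ⟨u, v, huv⟩ := hcop
  rw [mem_zpowers_iff]
  refine ⟨u, ?_⟩
  have h1 : a ^ (u * k + v * p) = a := by rw [huv, zpow_one]
  have h2 : a ^ (v * (p : ℤ)) = 1 := by
    rw [mul_comm, zpow_mul, zpow_natCast, ha, one_zpow]
  rw [zpow_add, h2, mul_one] at h1
  rw [← zpow_mul, mul_comm]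
  exact h1

theorem centralizer_eq_of_mem_zpowers {p : ℕ} (hp : p.Prime) {a b : Γ} (ha : a ^ p = 1)
    (hb : b ∈ zpowers a) (hb1 : b ≠ 1) : centralizer {b} = centralizer ({a} : Set Γ) := by
  have h1 := mem_zpowers_of_mem_zpowers hp ha hb hb1
  have h2 : zpowers a = zpowers b :=
    le_antisymm (zpowers_le.mpr h1) (zpowers_le.mpr hb)
  rw [← Cfsg.Agent.Lib.Helper22.centralizer_zpowers, ← Cfsg.Agent.Lib.Helper22.centralizer_zpowers, h2]

theorem sup_zpowers_eq {p : ℕ} (hp : p.Prime) (A : Subgroup Γ) [Finite A]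
    (hAp : ∀ x ∈ A, x ^ p = 1) (hA2 : Nat.card A = p ^ 2) {a b : Γ} (ha : a ∈ A) (ha1 : a ≠ 1)
    (hb : b ∈ A) (hb' : b ∉ zpowers a) : zpowers a ⊔ zpowers b = A := by
  have hle : zpowers a ⊔ zpowers b ≤ A := sup_le (zpowers_le.mpr ha) (zpowers_le.mpr hb)
  have : Finite ↥(zpowers a ⊔ zpowers b) := Finite.of_injective _ (inclusion_injective hle)
  have hca : Nat.card (zpowers a) = p := by
    rw [Nat.card_zpowers]
    have : Fact p.Prime := ⟨hp⟩
    exact orderOf_eq_prime (hAp a ha) ha1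
  have hdvd : Nat.card ↥(zpowers a ⊔ zpowers b) ∣ p ^ 2 := hA2 ▸ card_dvd_of_le hle
  obtain ⟨j, hj, hcj⟩ := (Nat.dvd_prime_pow hp).mp hdvd
  have h1 : p ∣ Nat.card ↥(zpowers a ⊔ zpowers b) := hca ▸ card_dvd_of_le le_sup_left
  have hne : Nat.card ↥(zpowers a ⊔ zpowers b) ≠ p := by
    intro h
    have h2 : zpowers a = zpowers a ⊔ zpowers b :=
      eq_of_le_of_card_ge le_sup_left (by rw [h, hca])
    apply hb'
    rw [h2]
    exact mem_sup_right (mem_zpowers b)
  have hj2 : j = 2 := by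
    interval_cases j
    · rw [hcj] at h1
      simp at h1
      exact absurd h1 hp.one_lt.ne'
    · rw [hcj] at hne
      simp at hne
    · rfl
  exact eq_of_le_of_card_ge hle (by rw [hA2, hcj, hj2])

theorem centralizer_pair_le {p : ℕ} (hp : p.Prime) (A : Subgroup Γ) [Finite A]
    (hAp : ∀ x ∈ A, x ^ p = 1) (hA2 : Nat.card A = p ^ 2) {a b : Γ} (ha : a ∈ A) (ha1 : a ≠ 1)
    (hb : b ∈ A) (hb' : b ∉ zpowers a) :
    centralizer {a} ⊓ centralizer {b} ≤ centralizer (A : Set Γ) := by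
  have h := sup_zpowers_eq hp A hAp hA2 ha ha1 hb hb'
  intro x hx
  rw [mem_inf] at hx
  have h1 : zpowers a ⊔ zpowers b ≤ centralizer ({x} : Set Γ) := by
    refine sup_le (zpowers_le.mpr ?_) (zpowers_le.mpr ?_)
    · rw [mem_centralizer_singleton_iff]
      exact (mem_centralizer_singleton_iff.mp hx.1).symm
    · rw [mem_centralizer_singleton_iff]
      exact (mem_centralizer_singleton_iff.mp hx.2).symm
  rw [h] at h1
  rw [mem_centralizer_iff]
  intro y hy
  exact (mem_centralizer_singleton_iff.mp (h1 hy))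

end Cfsg.Agent.Lib.Helper15.Ward
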