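import Mathlib
import Cfsg.Agent.Lib.Helper15.Ward.Defs

/-!
# Ward's theorem: module level lemmas (`D ≤ MulAut V` acting on a finite abelian group `V`)
-/

set_option autoImplicit false

namespace Cfsg.Agent.Lib.Helper15.Ward

open Subgroup Cfsg.Agent.Lib.Helper88

variable {V : Type*} [CommGroup V]

theorem map_commSub {D D' : Subgroup (MulAut V)} (t : MulAut V) (h : ∀ x ∈ D, t * x * t⁻¹ ∈ D')
    {w : V} (hw : w ∈ commSub D) : t w ∈ commSub D' := by
  unfold commSub at hw
  induction hw using Subgroup.closure_induction with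
  | mem y hy =>
    obtain ⟨α, hα, x, rfl⟩ := hy
    refine Subgroup.subset_closure ⟨t * α * t⁻¹, h α hα, t x, ?_⟩
    simp [MulAut.mul_apply]
  | one => rw [map_one]; exact one_mem _
  | mul a b _ _ ha hb => rw [map_mul]; exact mul_mem ha hb
  | inv a _ ha => rw [map_inv]; exact inv_mem ha

variable [Finite V]

theorem eq_one_of_fixed {D : Subgroup (MulAut V)} (hcop : (Nat.card D).Coprime (Nat.card V))
    {w : V} (hw : w ∈ commSub D) (hf : ∀ x ∈ D, x w = w) : w = 1 := by
  have h1 : w ∈ fixedSub D ⊓ commSub D := ⟨hf, hw⟩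
  rw [fixedSub_inf_commSub D hcop] at h1
  exact h1

theorem eq_bot_of_trivial {D : Subgroup (MulAut V)} (hcop : (Nat.card D).Coprime (Nat.card V))
    (h : ∀ x ∈ D, ∀ w ∈ commSub D, x w = w) : D = ⊥ := by
  rw [eq_bot_iff]
  intro x hx
  rw [mem_bot]
  ext v
  have h1 : v⁻¹ * x v ∈ commSub D := Subgroup.subset_closure ⟨x, hx, v, rfl⟩
  have h2 := eq_one_of_fixed hcop h1 (fun y hy => h y hy _ h1)
  rw [inv_mul_eq_one] at h2
  simpa using h2.symm

/-- decomposition inside an invariant subgroup -/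
theorem exists_decomp {D : Subgroup (MulAut V)} (hcop : (Nat.card D).Coprime (Nat.card V))
    (M : Subgroup V) (hM : ∀ x ∈ D, ∀ m ∈ M, x m ∈ M) {v : V} (hv : v ∈ M) :
    ∃ f u : V, f ∈ M ∧ u ∈ M ∧ f ∈ fixedSub D ∧ u ∈ commSub D ∧ v = f * u := by
  classical
  have : Fintype D := Fintype.ofFinite D
  set z : ℤ := (Nat.card V).gcdB (Nat.card D) with hz
  have key : ∀ x : V, (x ^ Nat.card D) ^ z = x := fun x => (powCoprime hcop.symm).left_inv x
  have hN : normMap D v ∈ M := by
    rw [normMap_apply]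
    exact Subgroup.prod_mem _ (fun α _ => hM α α.2 v hv)
  refine ⟨(normMap D v) ^ z, ((normMap D v) ^ z)⁻¹ * v, zpow_mem hN z,
    mul_mem (inv_mem (zpow_mem hN z)) hv, zpow_mem (normMap_mem_fixedSub D v) z, ?_, by group⟩
  have h1 := zpow_mem (pow_card_mul_inv_normMap_mem D v) z
  rw [mul_zpow, key, inv_zpow] at h1
  exact h1

end Cfsg.Agent.Lib.Helper15.Ward
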