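import Mathlib
import Cfsg.Agent.Lib.Helper15.Ward.Mod
import Cfsg.Agent.Lib.Helper15.Ward.Grp
import Cfsg.Agent.Lib.Helper7.WardA

/-!
# Ward's theorem: the core module argument, part 1
-/

set_option autoImplicit false

namespace Cfsg.Agent.Lib.Helper15.Ward

open Subgroup Cfsg.Agent.Lib.Helper88

theorem conj_mem_of_normalizer {Γ : Type*} [Group Γ] {H : Subgroup Γ} {g x : Γ}
    (hg : g ∈ normalizer (H : Set Γ)) (hx : x ∈ H) : g * x * g⁻¹ ∈ H :=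
  (mem_normalizer_iff.mp hg x).mp hx

theorem conj_mem_of_normalizer' {Γ : Type*} [Group Γ] {H : Subgroup Γ} {g x : Γ}
    (hg : g ∈ normalizer (H : Set Γ)) (hx : x ∈ H) : g⁻¹ * x * g ∈ H :=
  (mem_normalizer_iff''.mp hg x).mp hx

/-- a fixed point free element: every `t` is a commutator `t' b t'⁻¹ b⁻¹` -/
theorem exists_comm_eq {Γ : Type*} [Group Γ] (S : Subgroup Γ) [Finite S] (b : Γ)
    (hb : b ∈ normalizer (S : Set Γ)) (hfix : S ⊓ centralizer {b} = ⊥) (t : Γ) (ht : t ∈ S) :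
    ∃ t' ∈ S, t = t' * b * t'⁻¹ * b⁻¹ := by
  let φ : S → S := fun t' => ⟨t' * b * (t' : Γ)⁻¹ * b⁻¹, by
    have h1 := conj_mem_of_normalizer hb (inv_mem t'.2)
    have h2 := mul_mem t'.2 h1
    have : (t' : Γ) * b * (t' : Γ)⁻¹ * b⁻¹ = t' * (b * (t' : Γ)⁻¹ * b⁻¹) := by group
    rw [this]; exact h2⟩
  have hinj : Function.Injective φ := by
    intro x y hxy
    have h1 : (x : Γ) * b * (x : Γ)⁻¹ * b⁻¹ = y * b * (y : Γ)⁻¹ * b⁻¹ := congrArg Subtype.val hxy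
    have h2 : (y : Γ)⁻¹ * x ∈ S ⊓ centralizer {b} := by
      refine mem_inf.mpr ⟨mul_mem (inv_mem y.2) x.2, ?_⟩
      rw [mem_centralizer_singleton_iff]
      have h3 : (x : Γ) * b * (x : Γ)⁻¹ = y * b * (y : Γ)⁻¹ := mul_right_cancel h1
      calc (y : Γ)⁻¹ * x * b = (y : Γ)⁻¹ * (x * b * (x : Γ)⁻¹) * x := by group
        _ = (y : Γ)⁻¹ * (y * b * (y : Γ)⁻¹) * x := by rw [h3]
        _ = b * ((y : Γ)⁻¹ * x) := by group
    rw [hfix, mem_bot, inv_mul_eq_one] at h2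
    exact Subtype.ext h2.symm
  obtain ⟨t', ht'⟩ := (Finite.injective_iff_surjective.mp hinj) ⟨t, ht⟩
  exact ⟨t', t'.2, (congrArg Subtype.val ht').symm⟩

variable {V : Type*} [CommGroup V]

/-- the elements `g` of `N(Q)` with `g x g⁻¹ ≡ x` on `U` for all `x ∈ Q` -/
def GG (Q : Subgroup (MulAut V)) (U : Set V) : Subgroup (MulAut V) where
  carrier := {g | g ∈ normalizer (Q : Set (MulAut V)) ∧ ∀ x ∈ Q, ∀ u ∈ U, (g * x * g⁻¹) u = x u}
  one_mem' := ⟨one_mem _, fun x _ u _ => by simp⟩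
  mul_mem' := by
    rintro g g' ⟨hg, hg2⟩ ⟨hg', hg2'⟩
    refine ⟨mul_mem hg hg', fun x hx u hu => ?_⟩
    have h1 := hg2 _ (conj_mem_of_normalizer hg' hx) u hu
    rw [hg2' x hx u hu] at h1
    have h2 : g * g' * x * (g * g')⁻¹ = g * (g' * x * g'⁻¹) * g⁻¹ := by group
    rw [h2, h1]
  inv_mem' := by
    rintro g ⟨hg, hg2⟩
    refine ⟨inv_mem hg, fun x hx u hu => ?_⟩
    have h1 := hg2 _ (conj_mem_of_normalizer' hg hx) u hu
    have h2 : g * (g⁻¹ * x * g) * g⁻¹ = x := by group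
    rw [h2] at h1
    rw [inv_inv, ← h1]

theorem mem_GG {Q : Subgroup (MulAut V)} {U : Set V} {g : MulAut V} :
    g ∈ GG Q U ↔ g ∈ normalizer (Q : Set (MulAut V)) ∧
      ∀ x ∈ Q, ∀ u ∈ U, (g * x * g⁻¹) u = x u := Iff.rfl

/-- the elements of `Q` whose `g`-conjugate agrees with them on a `Q`-invariant `W` -/
def YY (Q : Subgroup (MulAut V)) (W : Subgroup V) (hW : ∀ x ∈ Q, ∀ w ∈ W, x w ∈ W)
    (T : Set (MulAut V)) : Subgroup (MulAut V) where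
  carrier := {x | x ∈ Q ∧ ∀ g ∈ T, ∀ w ∈ W, (g * x * g⁻¹) w = x w}
  one_mem' := ⟨one_mem _, fun g _ w _ => by simp⟩
  mul_mem' := by
    rintro x x' ⟨hx, hx2⟩ ⟨hx', hx2'⟩
    refine ⟨mul_mem hx hx', fun g hg w hw => ?_⟩
    have h1 : g * (x * x') * g⁻¹ = (g * x * g⁻¹) * (g * x' * g⁻¹) := by group
    rw [h1, MulAut.mul_apply, hx2' g hg w hw, hx2 g hg _ (hW x' hx' w hw), MulAut.mul_apply]
  inv_mem' := by
    rintro x ⟨hx, hx2⟩
    refine ⟨inv_mem hx, fun g hg w hw => ?_⟩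
    have hw' := hW x⁻¹ (inv_mem hx) w hw
    have h1 := hx2 g hg _ hw'
    have h2 : x (x⁻¹ w) = w := by rw [← MulAut.mul_apply]; simp
    rw [h2] at h1
    have h3 : g * x⁻¹ * g⁻¹ = (g * x * g⁻¹)⁻¹ := by group
    rw [h3, MulAut.inv_apply, MulEquiv.symm_apply_eq]
    exact h1.symm

/-- common hypotheses -/
structure Ctx (p : ℕ) (A Q Z : Subgroup (MulAut V)) : Prop where
  hAc : ∀ x ∈ A, ∀ y ∈ A, x * y = y * x
  hAp : ∀ x ∈ A, x ^ p = 1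
  hA2 : Nat.card A = p ^ 2
  hZQ : Z ≤ Q
  hZc : ∀ z ∈ Z, ∀ x ∈ Q, z * x = x * z
  hZV : (Nat.card Z).Coprime (Nat.card V)
  hpQ : ¬ p ∣ Nat.card Q
  hAQ : A ≤ normalizer (Q : Set (MulAut V))
  hAZ : A ≤ normalizer (Z : Set (MulAut V))
  hQfix : Q ⊓ centralizer (A : Set (MulAut V)) = ⊥
  h1 : ∀ b ∈ A, b ≠ 1 → ∀ y ∈ Q ⊓ centralizer {b}, ∀ v : V, b v = v → y v = v

namespace Ctx

variable [Finite V] {p : ℕ} [Fact p.Prime] {A Q Z : Subgroup (MulAut V)}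

omit [Finite V] [Fact p.Prime] in
theorem cop (h : Ctx p A Q Z) (b : MulAut V) :
    (Nat.card ↥(Z ⊓ centralizer {b})).Coprime (Nat.card V) :=
  Nat.Coprime.coprime_dvd_left (card_dvd_of_le inf_le_left) h.hZV

omit [Finite V] [Fact p.Prime] in
theorem Q_inv (h : Ctx p A Q Z) (b : MulAut V) : ∀ x ∈ Q, ∀ w ∈ commSub (Z ⊓ centralizer {b}),
    x w ∈ commSub (Z ⊓ centralizer {b}) := by
  intro x hx w hw
  refine map_commSub x (fun z hz => ?_) hw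
  rw [← h.hZc z hz.1 x hx, mul_inv_cancel_right]
  exact hz

omit [Finite V] [Fact p.Prime] in
theorem conj_mem_D (h : Ctx p A Q Z) {b c : MulAut V} (hb : b ∈ A) (hc : c ∈ A) :
    ∀ z ∈ Z ⊓ centralizer {b}, c * z * c⁻¹ ∈ Z ⊓ centralizer {b} := by
  intro z hz
  rw [mem_inf] at hz
  refine mem_inf.mpr ⟨conj_mem_of_normalizer (h.hAZ hc) hz.1, ?_⟩
  have h1 := mem_centralizer_singleton_iff.mp hz.2
  rw [mem_centralizer_singleton_iff]
  have h2 := h.hAc c hc b hb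
  have h3 : c⁻¹ * b = b * c⁻¹ := by
    rw [inv_mul_eq_iff_eq_mul, ← mul_assoc, h2, mul_inv_cancel_right]
  calc c * z * c⁻¹ * b = c * z * (c⁻¹ * b) := by group
    _ = c * (z * b) * c⁻¹ := by rw [h3]; group
    _ = (c * b) * z * c⁻¹ := by rw [h1]; group
    _ = b * (c * z * c⁻¹) := by rw [h2]; group

omit [Finite V] [Fact p.Prime] in
theorem conj_mem_CQ (h : Ctx p A Q Z) {b c : MulAut V} (hb : b ∈ A) (hc : c ∈ A) :
    ∀ z ∈ Q ⊓ centralizer {b}, c * z * c⁻¹ ∈ Q ⊓ centralizer {b} := by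
  intro z hz
  rw [mem_inf] at hz
  refine mem_inf.mpr ⟨conj_mem_of_normalizer (h.hAQ hc) hz.1, ?_⟩
  have h1 := mem_centralizer_singleton_iff.mp hz.2
  rw [mem_centralizer_singleton_iff]
  have h2 := h.hAc c hc b hb
  have h3 : c⁻¹ * b = b * c⁻¹ := by
    rw [inv_mul_eq_iff_eq_mul, ← mul_assoc, h2, mul_inv_cancel_right]
  calc c * z * c⁻¹ * b = c * z * (c⁻¹ * b) := by group
    _ = c * (z * b) * c⁻¹ := by rw [h3]; group
    _ = (c * b) * z * c⁻¹ := by rw [h1]; group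
    _ = b * (c * z * c⁻¹) := by rw [h2]; group

/-- Claim 1 -/
theorem claim1 (h : Ctx p A Q Z) {b₀ b : MulAut V} (hb₀ : b₀ ∈ A) (hb₀1 : b₀ ≠ 1) (hb : b ∈ A)
    (hbb : b ∉ zpowers b₀) : ∀ y ∈ Q ⊓ centralizer {b}, ∀ w ∈ commSub (Z ⊓ centralizer {b₀}),
    y w = w := by
  intro y hy
  have hb1 : b ≠ 1 := fun h0 => hbb (h0 ▸ one_mem _)
  have : Finite A := Nat.finite_of_card_ne_zero (by
    rw [h.hA2]; exact pow_ne_zero _ (Fact.out : p.Prime).ne_zero)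
  refine Cfsg.Agent.Lib.Helper7.Ward.lemmaL (Fact.out : p.Prime) (Z ⊓ centralizer {b₀}) b y
    (fun x hx x' hx' => h.hZc x hx.1 x' (h.hZQ hx'.1)) (h.hAp b hb) (h.conj_mem_D hb₀ hb) ?_
    (fun x hx => (h.hZc x hx.1 y hy.1).symm) (mem_centralizer_singleton_iff.mp hy.2)
    (h.h1 b hb hb1 y hy) (h.cop b₀)
  intro x hx hbx
  have h1 : x ∈ Q ⊓ centralizer (A : Set (MulAut V)) := by
    refine mem_inf.mpr ⟨h.hZQ hx.1, centralizer_pair_le (Fact.out : p.Prime) A h.hAp h.hA2 hb₀ hb₀1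
      hb hbb (mem_inf.mpr ⟨hx.2, ?_⟩)⟩
    rw [mem_centralizer_singleton_iff]
    exact hbx.symm
  rw [h.hQfix] at h1
  exact h1

/-- Claim P' -/
theorem claimP (h : Ctx p A Q Z) {b₀ : MulAut V} (hb₀ : b₀ ∈ A) (hb₀1 : b₀ ≠ 1) :
    ∀ x ∈ Q, ∀ w ∈ commSub (Z ⊓ centralizer {b₀}), (b₀ * x * b₀⁻¹) w = x w := by
  have hle : Q ≤ YY Q (commSub (Z ⊓ centralizer {b₀})) (h.Q_inv b₀) {b₀} := by
    refine Cfsg.Agent.Lib.Helper22.le_of_forall_centralizer_le A Q _ h.hAc h.hAp h.hA2.ge h.hpQ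
      h.hAQ ?_
    intro b hb hb1 x hx
    refine ⟨hx.1, ?_⟩
    rintro g rfl w hw
    by_cases hbb : b ∈ zpowers g
    · rw [centralizer_eq_of_mem_zpowers (Fact.out : p.Prime) (h.hAp g hb₀) hbb hb1] at hx
      rw [← mem_centralizer_singleton_iff.mp hx.2, mul_inv_cancel_right]
    · rw [h.claim1 hb₀ hb₀1 hb hbb x hx w hw,
        h.claim1 hb₀ hb₀1 hb hbb _ (h.conj_mem_CQ hb hb₀ x hx) w hw]
  intro x hx w hw
  exact (hle hx).2 b₀ rfl w hw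

omit [Fact p.Prime] in
/-- the final step -/
theorem final_step (h : Ctx p A Q Z) (S : Subgroup (MulAut V)) (hQS : ⁅Q, S⁆ = Q) (b₀ : MulAut V)
    (hS : ∀ t ∈ S, ∀ x ∈ Q, ∀ w ∈ commSub (Z ⊓ centralizer {b₀}), (t * x * t⁻¹) w = x w) :
    Z ⊓ centralizer {b₀} = ⊥ := by
  refine eq_bot_of_trivial (h.cop b₀) ?_
  have hle : Q ≤ fixingSubgroup (MulAut V) (commSub (Z ⊓ centralizer {b₀}) : Set V) := by
    rw [← hQS, commutator_le]
    intro x hx t ht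
    rw [mem_fixingSubgroup_iff]
    intro w hw
    rw [commutatorElement_def]
    have h1 := hS t ht x⁻¹ (inv_mem hx) w hw
    have h2 : x * t * x⁻¹ * t⁻¹ = x * (t * x⁻¹ * t⁻¹) := by group
    rw [h2, MulAut.smul_def, MulAut.mul_apply, h1, ← MulAut.mul_apply]
    simp
  intro x hx w hw
  exact (mem_fixingSubgroup_iff _).mp (hle (h.hZQ hx.1)) w hw

end Ctx

end Cfsg.Agent.Lib.Helper15.Ward
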