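import Mathlib
import Cfsg.Agent.Lib.Helper15.Ward.Core1
import Cfsg.Agent.Lib.Helper21.WardJ

/-!
# Ward's theorem: the core module argument
-/

set_option autoImplicit false

namespace Cfsg.Agent.Lib.Helper15.Ward

open Subgroup Cfsg.Agent.Lib.Helper88 Cfsg.Agent.Lib.Helper22

theorem core {V : Type*} [CommGroup V] [Finite V] {p q s : ℕ} [Fact p.Prime] [Fact q.Prime]
    [Fact s.Prime] (hqV : ¬ q ∣ Nat.card V) (hpq : p ≠ q) (hps : p ≠ s) (hsq : s ≠ q)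
    (A S Q : Subgroup (MulAut V)) (hAc : ∀ x ∈ A, ∀ y ∈ A, x * y = y * x) (hAp : ∀ x ∈ A, x ^ p = 1)
    (hA2 : Nat.card A = p ^ 2) (hQ : IsPGroup q Q) (hS : IsPGroup s S)
    (hAQ : A ≤ normalizer (Q : Set (MulAut V))) (hAS : A ≤ normalizer (S : Set (MulAut V)))
    (hSQ : S ≤ normalizer (Q : Set (MulAut V)))
    (a : MulAut V) (ha : a ∈ A) (ha1 : a ≠ 1) (hSa : S ≤ centralizer {a})
    (hSfix : S ⊓ centralizer (A : Set (MulAut V)) = ⊥)
    (hQfix : Q ⊓ centralizer (A : Set (MulAut V)) = ⊥)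
    (hQS : ⁅Q, S⁆ = Q) (h2 : Q ⊓ centralizer {a} ≤ centralizer (S : Set (MulAut V)))
    (h1 : ∀ b ∈ A, b ≠ 1 → ∀ y ∈ Q ⊓ centralizer {b}, ∀ v : V, b v = v → y v = v) :
    Q = ⊥ := by
  by_contra hQ1
  have hp : p.Prime := Fact.out
  have hq : q.Prime := Fact.out
  set Z : Subgroup (MulAut V) := Q ⊓ centralizer (Q : Set (MulAut V)) with hZdef
  have hZQ : Z ≤ Q := inf_le_left
  have hZc : ∀ z ∈ Z, ∀ x ∈ Q, z * x = x * z := fun z hz x hx =>
    (mem_centralizer_iff.mp (mem_inf.mp hz).2 x hx).symm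
  have hZ1 : Z ≠ ⊥ := by
    have : Nontrivial Q := (nontrivial_iff_ne_bot Q).mpr hQ1
    have := hQ.center_nontrivial
    obtain ⟨z, hz⟩ := exists_ne (1 : center Q)
    intro hbot
    apply hz
    have hzZ : ((z : Q) : MulAut V) ∈ Z := by
      refine mem_inf.mpr ⟨z.1.2, mem_centralizer_iff.mpr (fun x hx => ?_)⟩
      have := mem_center_iff.mp z.2 ⟨x, hx⟩
      exact congrArg Subtype.val this
    rw [hbot, mem_bot] at hzZ
    exact Subtype.ext (Subtype.ext hzZ)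
  obtain ⟨n, hn⟩ := hQ.exists_card_eq
  have hQV : (Nat.card Q).Coprime (Nat.card V) := by
    rw [hn]
    exact Nat.Coprime.pow_left n ((Nat.Prime.coprime_iff_not_dvd hq).mpr hqV)
  have hZV : (Nat.card Z).Coprime (Nat.card V) :=
    Nat.Coprime.coprime_dvd_left (card_dvd_of_le hZQ) hQV
  have hpQ : ¬ p ∣ Nat.card Q := by
    rw [hn]
    intro h
    exact hpq ((Nat.prime_dvd_prime_iff_eq hp hq).mp (hp.dvd_of_dvd_pow h))
  have hpZ : ¬ p ∣ Nat.card Z := not_dvd_card_of_le hZQ hpQ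
  have hAZ : A ≤ normalizer (Z : Set (MulAut V)) := le_normalizer_inf_centralizer hAQ hAQ
  have hSZ : S ≤ normalizer (Z : Set (MulAut V)) := le_normalizer_inf_centralizer hSQ hSQ
  have ctx : Ctx p A Q Z := ⟨hAc, hAp, hA2, hZQ, hZc, hZV, hpQ, hAQ, hAZ, hQfix, h1⟩
  have : Finite A := Nat.finite_of_card_ne_zero (by rw [hA2]; exact pow_ne_zero _ hp.ne_zero)
  -- the case `b₀ = a`
  have hDa : Z ⊓ centralizer {a} = ⊥ := by
    refine ctx.final_step S hQS a ?_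
    have hSW : ∀ t ∈ S, ∀ w ∈ commSub (Z ⊓ centralizer {a}),
        t w ∈ commSub (Z ⊓ centralizer {a}) := by
      intro t ht w hw
      refine map_commSub t (fun z hz => ?_) hw
      rw [mem_inf] at hz ⊢
      exact ⟨conj_mem_of_normalizer (hSZ ht) hz.1,
        mul_mem (mul_mem (hSa ht) hz.2) (inv_mem (hSa ht))⟩
    have hle : Q ≤ YY Q (commSub (Z ⊓ centralizer {a})) (ctx.Q_inv a) (S : Set (MulAut V)) := by
      refine le_of_forall_centralizer_le A Q _ hAc hAp hA2.ge hpQ hAQ ?_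
      intro b hb hb1 x hx
      refine ⟨hx.1, ?_⟩
      intro t ht w hw
      by_cases hbb : b ∈ zpowers a
      · rw [centralizer_eq_of_mem_zpowers hp (hAp a ha) hbb hb1] at hx
        have h3 := mem_centralizer_iff.mp (h2 hx) t ht
        rw [h3, mul_inv_cancel_right]
      · have hw' := hSW t⁻¹ (inv_mem ht) w hw
        rw [ctx.claim1 ha ha1 hb hbb x hx w hw, MulAut.mul_apply, MulAut.mul_apply,
          ctx.claim1 ha ha1 hb hbb x hx _ hw', ← MulAut.mul_apply]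
        simp
    intro t ht x hx w hw
    exact (hle hx).2 t ht w hw
  -- the case `b₀ ∉ ⟨a⟩`
  have hDb : ∀ b₀ ∈ A, b₀ ∉ zpowers a → Z ⊓ centralizer {b₀} = ⊥ := by
    intro b₀ hb₀ hb₀a
    have hb₀1 : b₀ ≠ 1 := fun h0 => hb₀a (h0 ▸ one_mem _)
    have hSW := Cfsg.Agent.Lib.Helper21.Ward.claim3 hps A S Q Z hAc hAp hA2 hS hZQ hZc hZV hpZ hAQ
      hAZ hAS hSQ hSZ a ha ha1 hSa hDa (fun b hb hb1 => ctx.claimP hb hb1) b₀ hb₀ hb₀a
    refine ctx.final_step S hQS b₀ ?_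
    intro t ht
    have hSb : S ⊓ centralizer {b₀} = ⊥ := by
      rw [eq_bot_iff, ← hSfix]
      intro x hx
      rw [mem_inf] at hx
      exact mem_inf.mpr ⟨hx.1, centralizer_pair_le hp A hAp hA2 ha ha1 hb₀ hb₀a
        (mem_inf.mpr ⟨hSa hx.1, hx.2⟩)⟩
    obtain ⟨t', ht', rfl⟩ := exists_comm_eq S b₀ (hAS hb₀) hSb t ht
    have hb₀G : b₀ ∈ GG Q (commSub (Z ⊓ centralizer {b₀}) : Set V) :=
      ⟨hAQ hb₀, ctx.claimP hb₀ hb₀1⟩
    have hconj : t' * b₀ * t'⁻¹ ∈ GG Q (commSub (Z ⊓ centralizer {b₀}) : Set V) := by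
      refine ⟨mul_mem (mul_mem (hSQ ht') (hAQ hb₀)) (inv_mem (hSQ ht')), ?_⟩
      intro x hx w hw
      have hx'' := conj_mem_of_normalizer' (hSQ ht') hx
      have hw' := hSW t'⁻¹ (inv_mem ht') w hw
      have h3 := ctx.claimP hb₀ hb₀1 _ hx'' _ hw'
      have h4 : t' * b₀ * t'⁻¹ * x * (t' * b₀ * t'⁻¹)⁻¹ =
          t' * (b₀ * (t'⁻¹ * x * t') * b₀⁻¹) * t'⁻¹ := by group
      rw [h4, MulAut.mul_apply, MulAut.mul_apply, h3, ← MulAut.mul_apply, ← MulAut.mul_apply]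
      congr 1
      group
    exact (mul_mem hconj (inv_mem hb₀G)).2
  apply hZ1
  rw [eq_bot_iff]
  refine le_of_forall_centralizer_le A Z ⊥ hAc hAp hA2.ge hpZ hAZ ?_
  intro b hb hb1
  by_cases hbb : b ∈ zpowers a
  · rw [centralizer_eq_of_mem_zpowers hp (hAp a ha) hbb hb1, hDa]
  · rw [hDb b hb hbb]

end Cfsg.Agent.Lib.Helper15.Ward
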